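import Cfsg.Agent.Lib.Helper17.E8I.DefsE

set_option autoImplicit false

namespace Cfsg.Agent.Lib.Helper15.E8I

open Cfsg.Lie Cfsg.Agent.Lib.Helper18 Cfsg.Agent.Lib.Helper17 Cfsg.Agent.Lib.Helper36
  Cfsg.Agent.Lib.Helper6 Matrix Cfsg.Agent.Lib.Helper17.E8I

theorem F7_tab_180 : ∀ r : Fin 30, ∀ s : Fin 240, chevE8.pairing (r.val + 180) s = 0 →
    chevE8.commTerms (r.val + 180) s = [] ∧ s.val ≠ r.val + 180 ∧ s.val ≠ chevE8.neg (r.val + 180) := by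
  decide +kernel

theorem F7_tab_210 : ∀ r : Fin 30, ∀ s : Fin 240, chevE8.pairing (r.val + 210) s = 0 →
    chevE8.commTerms (r.val + 210) s = [] ∧ s.val ≠ r.val + 210 ∧ s.val ≠ chevE8.neg (r.val + 210) := by
  decide +kernel

end Cfsg.Agent.Lib.Helper15.E8I
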