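import Cfsg.Agent.Lib.Helper17.E8I.DefsE
import Cfsg.Agent.Lib.Helper15.E8I.F7t0
import Cfsg.Agent.Lib.Helper15.E8I.F7t1
import Cfsg.Agent.Lib.Helper15.E8I.F7t2
import Cfsg.Agent.Lib.Helper15.E8I.F7t3

set_option autoImplicit false

namespace Cfsg.Agent.Lib.Helper15.E8I

open Cfsg.Lie Cfsg.Agent.Lib.Helper18 Cfsg.Agent.Lib.Helper17 Cfsg.Agent.Lib.Helper36
  Cfsg.Agent.Lib.Helper6 Matrix Cfsg.Agent.Lib.Helper17.E8I

theorem F7_tab (r s : ℕ) (hr : r < 240) (hs : s < 240) (h : chevE8.pairing r s = 0) :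
    chevE8.commTerms r s = [] ∧ s ≠ r ∧ s ≠ chevE8.neg r := by
  have key : ∀ a : ℕ, (∀ r : Fin 30, ∀ s : Fin 240, chevE8.pairing (r.val + a) s = 0 →
      chevE8.commTerms (r.val + a) s = [] ∧ s.val ≠ r.val + a ∧ s.val ≠ chevE8.neg (r.val + a)) →
      a ≤ r → r < a + 30 → chevE8.commTerms r s = [] ∧ s ≠ r ∧ s ≠ chevE8.neg r := by
    intro a ha h1 h2
    have h3 := ha ⟨r - a, by omega⟩ ⟨s, hs⟩
    have e : r - a + a = r := by omega
    simp only [e] at h3
    exact h3 h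
  by_cases h0 : r < 30
  · exact key 0 F7_tab_0 (by omega) (by omega)
  by_cases h1 : r < 60
  · exact key 30 F7_tab_30 (by omega) (by omega)
  by_cases h2 : r < 90
  · exact key 60 F7_tab_60 (by omega) (by omega)
  by_cases h3 : r < 120
  · exact key 90 F7_tab_90 (by omega) (by omega)
  by_cases h4 : r < 150
  · exact key 120 F7_tab_120 (by omega) (by omega)
  by_cases h5 : r < 180
  · exact key 150 F7_tab_150 (by omega) (by omega)
  by_cases h6 : r < 210
  · exact key 180 F7_tab_180 (by omega) (by omega)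
  · exact key 210 F7_tab_210 (by omega) (by omega)

variable {F : Type*} [Field F] (hB : Base chevE8 F)

theorem F7_comm (r s : ℕ) (hr : r < 240) (hs : s < 240) (h : e8orth r s) (t u : F) :
    hB.xg r t * hB.xg s u = hB.xg s u * hB.xg r t := by
  obtain ⟨h1, h2, h3⟩ := F7_tab r s hr hs h
  refine CG.comm_dvd hB (m := 0) (by simp) hr hs (Or.inr ⟨h2, h3, ?_⟩) t u
  intro c hc
  rw [h1] at hc
  simp at hc

/-- [F7] orthogonal root elements commute -/
theorem lp_perm (O O' : List ℕ) (hO : O.Pairwise e8orth) (hb : ∀ o ∈ O, o < 240) (hp : O.Perm O') :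
    CG.lp hB O (fun _ => (1 : F)) = CG.lp hB O' (fun _ => 1) := by
  unfold CG.lp
  apply List.Perm.prod_eq' (hp.map _)
  rw [List.pairwise_map]
  exact hO.imp_of_mem fun {a b} ha hb' hab => F7_comm hB a b (hb a ha) (hb b hb') hab 1 1

end Cfsg.Agent.Lib.Helper15.E8I
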